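import Cfsg.Agent.H7.Mult4
import Cfsg.Prelude.Def_SporadicB

/-! Bounds for the stem extensions of a cover. -/

set_option autoImplicit false

namespace CfsgH7

open Subgroup Cfsg
open scoped commutatorElement

universe u

theorem dc_stem {H K : Type*} [Group H] [Group K] [Finite H] (hK : _root_.commutator K = ⊤)
    (h : IsNonsplitDoubleCover H K) : ∃ τ : H →* K, IsStemExtension τ ∧ Nat.card τ.ker = 2 := by
  obtain ⟨h1, ⟨e⟩, h3⟩ := h
  let τ := e.toMonoidHom.comp (QuotientGroup.mk' (center H))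
  have k : τ.ker = center H := by ext x; simp [τ, MonoidHom.mem_ker]
  have s : Function.Surjective τ := e.surjective.comp (QuotientGroup.mk'_surjective _)
  refine ⟨τ, ⟨s, k.le, ?_⟩, k ▸ h1⟩
  have t : center H ⊔ _root_.commutator H = ⊤ := by
    rw [← k, sup_comm, ← comap_map_eq, _root_.commutator_def, map_commutator, map_top_of_surjective _ s,
      ← _root_.commutator_def, hK, comap_top]
  have d : Nat.card (center H ⊓ _root_.commutator H : Subgroup H) ∣ 2 := h1 ▸ card_dvd_of_le inf_le_left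
  rcases (Nat.dvd_prime Nat.prime_two).1 d with d | d
  · exact absurd (isComplement'_of_disjoint_and_mul_eq_univ (disjoint_iff.2 (card_eq_one.1 d)) (by
      rw [← normal_mul, t, coe_top])) (h3 _)
  · rw [k]
    exact inf_eq_left.1 (eq_of_le_of_card_ge inf_le_left (by rw [h1, d]))

theorem SB.up {G Δ : Type u} [Group G] [Group Δ] (hG : _root_.commutator G = ⊤) {τ : Δ →* G}
    (hτ : IsStemExtension τ) {a m : Nat} (ha : Nat.card τ.ker = a) (h0 : a ≠ 0) (h : SB G (a * m)) : SB Δ m := by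
  intro Γ _ _ ρ hρ
  have hp := perfect_of_stem (perfect_of_stem hG hτ) hρ
  have e : (τ.comp ρ).ker = τ.ker.comap ρ := (MonoidHom.comap_ker τ ρ).symm
  have c1 : ⁅(τ.comp ρ).ker, (⊤ : Subgroup Γ)⁆ ≤ center Γ := commutator_le.2 fun x hx y _ => hρ.2.1 (by
    rw [MonoidHom.mem_ker, map_commutatorElement, commutatorElement_eq_one_iff_mul_comm]
    exact (mem_center_iff.1 (hτ.2.1 hx) _).symm)
  have c2 : ⁅⁅(τ.comp ρ).ker, (⊤ : Subgroup Γ)⁆, (⊤ : Subgroup Γ)⁆ = ⊥ := by
    rw [commutator_eq_bot_iff_le_centralizer, coe_top, centralizer_univ]; exact c1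
  have c3 := commutator_commutator_eq_bot_of_rotate (H₁ := ⊤) (H₂ := ⊤) (H₃ := (τ.comp ρ).ker)
    (by rwa [commutator_comm ⊤ (τ.comp ρ).ker]) c2
  rw [← _root_.commutator_def, hp, commutator_comm, commutator_eq_bot_iff_le_centralizer, coe_top,
    centralizer_univ] at c3
  have := h Γ (τ.comp ρ) ⟨hτ.1.comp hρ.1, c3, hp ▸ le_top⟩
  rw [e, ← card_map_mul ρ, map_comap_eq_self_of_surjective hρ.1, ha, inf_eq_left.2 (ker_le_comap _ _)] at this
  exact Nat.dvd_of_mul_dvd_mul_left (Nat.pos_of_ne_zero h0) this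

theorem dc_cov {H K : Type u} [Group H] [Group K] [Finite H] (hK : _root_.commutator K = ⊤)
    (h : IsNonsplitDoubleCover H K) : Cov K (Multiplicative (ZMod 2)) := by
  obtain ⟨τ, h1, h2⟩ := dc_stem hK h
  exact ⟨H, _, inferInstance, τ, h1, ⟨mulEquivOfPrimeCardEq h2 (by simp [Nat.card_zmod])⟩⟩

theorem perf_sub {G : Type*} [Group G] {X : Subgroup G} (h : _root_.commutator X = ⊤) : ⁅X, X⁆ = X := by
  rw [← map_subtype_commutator, h, ← MonoidHom.range_eq_map, range_subtype]

theorem pow_ne3 {G : Type*} [Group G] {x : G} (h3 : x ^ 3 = 1) (h1 : x ≠ 1) : ∀ i < 3, i ≠ 0 → x ^ i ≠ 1 :=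
  fun i hi h0 e => by
    have := orderOf_dvd_of_pow_eq_one e
    rw [orderOf_eq_prime h3 h1] at this
    have := Nat.le_of_dvd (by omega) this
    omega

end CfsgH7
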