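import Cfsg.Agent.H7.Mult6

/-! Lifting involutions through a central kernel of exponent three. -/

set_option autoImplicit false

namespace CfsgH7

open Subgroup

universe u

variable {Γ G : Type*} [Group Γ] [Group G] {σ : Γ →* G}

theorem CE.lift3 (E : CE σ 3) (g : Nat → G) (h : ∀ j, g j * g j = 1) :
    ∃ γ : Nat → Γ, (fun j => σ (γ j)) = g ∧ ∀ j, γ j * γ j = 1 := by
  choose a ha using fun j => E.surj (g j)
  refine ⟨fun j => a j ^ 3, funext fun j => ?_, fun j => ?_⟩
  · rw [map_pow, ha, pow_three, h, mul_one]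
  · have := E.exp (a j * a j) (by rw [MonoidHom.mem_ker, map_mul, ha, h])
    rwa [(Commute.refl (a j)).mul_pow] at this

theorem CE.inv3 (E : CE σ 3) {x y : Γ} {n : Nat} (h : y * x * y⁻¹ = x⁻¹) (hx : σ (x ^ n) = 1) : x ^ n = 1 := by
  have h1 : y * x ^ n * y⁻¹ = (x ^ n)⁻¹ := by rw [← conj_pow, h, inv_pow]
  rw [mem_center_iff.1 (E.cen hx) y, mul_inv_cancel_right] at h1
  have h2 := E.exp _ hx
  rwa [pow_three, eq_inv_iff_mul_eq_one.1 h1, mul_one] at h2

/-- Move a letter past the letters it commutes with. -/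
def ins (R : List (List Nat)) (x : Nat) : List Nat → List Nat
  | [] => [x]
  | y :: l => if x = y then l else
      if R.contains [x, y, x, y] || R.contains [y, x, y, x] then y :: ins R x l else x :: y :: l

def rac (R : List (List Nat)) (w : List Nat) : List Nat := w.foldr (ins R) []

def kilOk (R : List (List Nat)) (r u y : List Nat) (n : Nat) : Bool :=
  r == wpow u n && rac R (y ++ y.reverse) == [] && rac R (y ++ u ++ y.reverse ++ u) == []

variable {γ : Nat → Γ} {R : List (List Nat)}

theorem wprod_rac (hI : ∀ j, γ j * γ j = 1) (hs : Sat γ R) (w : List Nat) : wprod γ (rac R w) = wprod γ w := by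
  have h1 : ∀ x, letter γ x * letter γ x = 1 := fun x => by
    unfold letter
    split_ifs
    · exact hI _
    · rw [← mul_inv_rev, hI, inv_one]
  have h2 : ∀ x y, [x, y, x, y] ∈ R → letter γ x * letter γ y = letter γ y * letter γ x := fun x y h => by
    have := hs _ h
    simp only [wprod_cons, wprod_nil, mul_one] at this
    rw [← mul_assoc] at this
    rw [eq_inv_of_mul_eq_one_left this, mul_inv_rev, inv_eq_of_mul_eq_one_right (h1 x),
      inv_eq_of_mul_eq_one_right (h1 y)]
  have h3 : ∀ x l, wprod γ (ins R x l) = letter γ x * wprod γ l := fun x l => by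
    induction l with
    | nil => simp [ins, wprod_cons]
    | cons y l ih =>
      simp only [ins]
      split_ifs with a b
      · rw [wprod_cons, ← mul_assoc, ← a, h1, one_mul]
      · rw [wprod_cons, wprod_cons, ih, ← mul_assoc, ← mul_assoc]
        simp only [Bool.or_eq_true, List.contains_iff_mem] at b
        rw [b.elim (h2 x y) fun b => (h2 y x b).symm]
      · rw [wprod_cons]
  induction w with
  | nil => rfl
  | cons x w ih => rw [rac, List.foldr_cons, h3, wprod_cons, ← ih, rac]

theorem CE.kil (E : CE σ 3) (hI : ∀ j, γ j * γ j = 1) (hs : Sat γ R) {r u y : List Nat} {n : Nat}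
    (h : kilOk R r u y n = true) (hx : σ (wprod γ r) = 1) : wprod γ r = 1 := by
  simp only [kilOk, Bool.and_eq_true, beq_iff_eq] at h
  obtain ⟨⟨rfl, h1⟩, h2⟩ := h
  have e1 := wprod_rac hI hs (y ++ y.reverse)
  have e2 := wprod_rac hI hs (y ++ u ++ y.reverse ++ u)
  rw [h1, wprod_nil, wprod_append] at e1
  rw [h2, wprod_nil, wprod_append, wprod_append, wprod_append, eq_inv_of_mul_eq_one_right e1.symm] at e2
  rw [wprod_wpow] at hx ⊢
  exact E.inv3 (eq_inv_of_mul_eq_one_left e2.symm) hx

theorem Sp.of_sat {Γ : Type u} [Group Γ] {σ : Γ →* G} {γ : Nat → Γ} {k N : Nat} (hP : Pr.{u} k R N) (hs : Sat γ R)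
    (hN : N ≤ Nat.card (genW (fun j => σ (γ j)) (gensW k))) : Sp σ (genW (fun j => σ (γ j)) (gensW k)) 1 := by
  refine ⟨_, genW_map σ γ _, ?_⟩
  obtain ⟨h1, h2⟩ := hP Γ γ hs
  have h3 := card_map_mul σ (genW γ (gensW k))
  have h4 : 0 < Nat.card (genW γ (gensW k)) := Nat.card_pos
  rw [genW_map] at h3
  rw [Nat.dvd_one]
  rcases Nat.lt_or_ge 1 (Nat.card (σ.ker ⊓ genW γ (gensW k) : Subgroup Γ)) with h | h
  · nlinarith
  · rcases Nat.le_one_iff_eq_zero_or_eq_one.1 h with h | h
    · rw [h] at h3; omega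
    · exact h

end CfsgH7
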