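import Cfsg.Agent.H7.Cls
import Cfsg.Agent.H7.Fus
import Cfsg.Agent.S4487
import Cfsg.Agent.S0958
import Cfsg.Agent.S0936
import Cfsg.Agent.S0908
import Cfsg.Agent.H3.Apps

/-! Groups with a single 2-block. -/

set_option autoImplicit false

universe u

open Cfsg Subgroup CfsgH3 CfsgH4
open scoped Pointwise

namespace CfsgH7

section

variable {G : Type*} [Group G]

/-- The centraliser of `t` has a self-centralising normal 2-subgroup. -/
def Con2 (t : G) : Prop := ∃ Q : Subgroup G, IsPGroup 2 Q ∧ Q ≤ centralizer {t} ∧ centralizer {t} ≤ normalizer (Q : Set G) ∧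
  centralizer (Q : Set G) ≤ Q

theorem one_of_con [Finite G] {M : Ideal AlgInt} (hM : IsPModular 2 M) (Q : Subgroup G) [Q.Normal] (h1 : IsPGroup 2 Q)
    (h2 : centralizer (Q : Set G) ≤ Q) (χ ψ : IrrCharacter G) : SameBlock M χ.1 ψ.1 := by
  have h3 := CfsgH1.le_pCore h1
  refine Cfsg.Agent.S4487.result 2 M hM ?_ ((centralizer_le h3).trans (h2.trans h3)) χ ψ
  have := pPrimeCore_normal 2 G
  obtain ⟨m, hm⟩ := IsPGroup.iff_card.1 h1
  have hd : Disjoint (pPrimeCore 2 G) Q := disjoint_iff.2 (inf_eq_bot_of_coprime (by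
    rw [hm]; exact (CfsgH1.coprime_pPrimeCore 2).pow_right m))
  exact hd.eq_bot_of_le fun x hx => h2 fun y hy => (commute_of_normal_of_disjoint _ _ this inferInstance hd x y hx hy).symm.eq

theorem oneBlock [Finite G] {M : Ideal AlgInt} (hM : IsPModular 2 M) (hA : ∀ y : G, y ^ 2 = 1 → y ≠ 1 → ∃ r, IsConj y r ∧ Con2 r)
    (hB : ∀ χ : IrrCharacter G, 2 ∣ Nat.card G / charDegree χ.1) (χ ψ : IrrCharacter G) : SameBlock M χ.1 ψ.1 := by
  haveI : PMod 2 M := ⟨hM⟩
  haveI := hM.2.1
  suffices h : ∀ χ : IrrCharacter G, SameBlock M (fun _ => 1) χ.1 from (h χ).symm.trans (h ψ)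
  intro χ
  have hb : IsPBlock M (blockOf M χ.1) := ⟨χ, rfl⟩
  obtain ⟨D, hD⟩ := hb.exists_defectGroup (p := 2)
  have hc := Cfsg.Agent.S0908.result 2 M hM _ hb D hD
  rcases Nat.eq_zero_or_pos (blockDefect 2 (blockOf M χ.1)) with e | e
  · exfalso
    obtain ⟨θ, -, h2⟩ := Nat.sInf_mem (hb.nonempty.image fun χ : IrrCharacter G => (charDegree χ.1).factorization 2)
    have h3 := Nat.sub_eq_zero_iff_le.1 e
    rw [← h2] at h3
    obtain ⟨k, hk⟩ := charDegree_dvd θ.2
    have h4 := hB θ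
    have h5 := charDegree_ne_zero θ.2
    rw [hk, Nat.mul_div_cancel_left _ (Nat.pos_of_ne_zero h5)] at h4
    have h6 : k ≠ 0 := fun e => Nat.card_pos.ne' (hk.trans (by rw [e, mul_zero]))
    rw [hk, Nat.factorization_mul h5 h6, Finsupp.add_apply] at h3
    have := (Nat.prime_two.dvd_iff_one_le_factorization h6).1 h4
    simp only at h3
    omega
  · obtain ⟨y, hy⟩ := exists_prime_orderOf_dvd_card' (G := D) 2 (hc ▸ dvd_pow_self 2 e.ne')
    rw [← Subgroup.orderOf_coe] at hy
    obtain ⟨r, hr, Q, q1, q2, q3, q4⟩ := hA y.1 (hy ▸ pow_orderOf_eq_one _) fun e => by simp [e] at hy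
    obtain ⟨c, hc⟩ := isConj_iff.1 hr.symm
    have ho : orderOf r = 2 := by
      rw [← hy, ← hc]; exact ((MulAut.conj c).orderOf_eq r).symm
    obtain ⟨b, h1⟩ := (Cfsg.Agent.S0958.result 2 M hM (zpowers r) (centralizer {r})
      (IsPGroup.of_card (n := 1) (by rw [Nat.card_zpowers, ho]; rfl))
      (sup_le (zpowers_le.2 (mem_centralizer_singleton_iff.2 rfl)) (centralizer_le (by simp)))
      (fun x hx => by
        have := mem_centralizer_singleton_iff.1 hx
        refine mem_normalizer_fintype ?_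
        rintro _ ⟨i, rfl⟩
        exact ⟨i, by simp only; rw [← conj_zpow, this, mul_inv_cancel_right]⟩) _ hb).2
      ⟨D, hD, c, by rw [MonoidHom.map_zpowers, zpowers_le]; exact (show c * r * c⁻¹ ∈ D from hc ▸ y.2)⟩
    obtain ⟨ξ, rfl⟩ := h1.1
    have : (Q.subgroupOf (centralizer {r})).Normal := (normal_subgroupOf_iff_le_normalizer q2).2 q3
    have h2 := one_of_con hM (Q.subgroupOf (centralizer {r})) (q1.of_equiv (subgroupOfEquivOfLe q2).symm)
      (fun x hx => q4 fun z hz => congrArg Subtype.val (hx ⟨z, q2 hz⟩ hz)) ξ (irrOne _)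
    have h3 := (Cfsg.Agent.S0936.result 2 M hM _ _ ⟨_, h1⟩).2 (blockOf_eq_of_sameBlock h2)
    exact fun g => InP.trans (InP.symm (h3.2.2 ξ (mem_blockOf_self ξ) _ irrOne_mem_principal g))
      (h1.2.2 ξ (mem_blockOf_self ξ) χ (mem_blockOf_self χ) g)

theorem sum_list {O : Subgroup G} [Fintype O] (f : G → ℂ) (L : List G) (h1 : ∀ x ∈ O, x ∈ L) (h2 : ∀ x ∈ L, x ∈ O)
    (h3 : L.length ≤ Nat.card O) : ∑ x : O, f x = (L.map f).sum := by
  classical
  have e : L.toFinset = Finset.univ.map (Function.Embedding.subtype (· ∈ O)) := by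
    ext x; simpa using ⟨h2 x, h1 x⟩
  have hn : L.Nodup := by
    have := congrArg Finset.card e
    rw [Finset.card_map, Finset.card_univ, ← Nat.card_eq_fintype_card, List.card_toFinset] at this
    exact List.dedup_eq_self.1 ((List.dedup_sublist L).eq_of_length_le (this ▸ h3))
  rw [← List.sum_toFinset f hn, e, Finset.sum_map]; rfl

theorem sum_semi [Finite G] {χ : G → ℂ} (hχ : IsCharacter G χ) (h0 : ∀ x, 2 ∣ orderOf x → χ x = 0) {O T : Subgroup G} [Fintype O]
    (hT : IsPGroup 2 T) (hO : (Nat.card O).Coprime 2) (hn : T ≤ normalizer (O : Set G)) :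
    ∃ k : Nat, ∑ x : O, χ x = Nat.card O * Nat.card T * k := by
  classical
  have := Fintype.ofFinite T
  have := Fintype.ofFinite (O ⊔ T : Subgroup G)
  obtain ⟨m, hm⟩ := IsPGroup.iff_card.1 hT
  have hd : O ⊓ T = ⊥ := inf_eq_bot_of_coprime (hm ▸ hO.pow_right m)
  have hd' : ∀ x ∈ O, x ∈ T → x = 1 := fun x a b => mem_bot.1 (hd ▸ (⟨a, b⟩ : x ∈ O ⊓ T))
  let f : O × T → (O ⊔ T : Subgroup G) := fun p => ⟨p.1 * p.2, mul_mem (mem_sup_left p.1.2) (mem_sup_right p.2.2)⟩
  have hf : Function.Bijective f := by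
    refine ⟨fun p q e => ?_, fun x => ?_⟩
    · have e : p.1.1 * p.2.1 = q.1 * q.2 := congrArg Subtype.val e
      have e2 : q.1.1⁻¹ * p.1 = q.2 * p.2.1⁻¹ := by rw [inv_mul_eq_iff_eq_mul, ← mul_assoc, ← e, mul_inv_cancel_right]
      have e3 := hd' _ (mul_mem (inv_mem q.1.2) p.1.2) (e2 ▸ mul_mem q.2.2 (inv_mem p.2.2))
      exact Prod.ext (Subtype.ext (inv_mul_eq_one.1 e3).symm) (Subtype.ext (mul_inv_eq_one.1 (e2 ▸ e3)).symm)
    · have : x.1 ∈ (O : Set G) * (T : Set G) := by rw [← coe_mul_of_right_le_normalizer_left O T hn]; exact x.2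
      obtain ⟨a, ha, b, hb, e⟩ := this
      exact ⟨(⟨a, ha⟩, ⟨b, hb⟩), Subtype.ext e⟩
  obtain ⟨k, hk⟩ := (hχ.restrict (O ⊔ T)).exists_nat_classInner isCharacter_one
  rw [classInner_one_right, inv_mul_eq_iff_eq_mul₀ (by exact_mod_cast Nat.card_pos.ne'), ← Nat.card_eq_of_bijective f hf,
    Nat.card_prod, ← hf.sum_comp, Fintype.sum_prod_type] at hk
  refine ⟨k, Eq.trans (Finset.sum_congr rfl fun o _ => ?_) (hk.trans (by push_cast; rfl))⟩
  rw [Finset.sum_eq_single 1 (fun t _ ht => h0 _ ?_) (by simp)]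
  · simp [f]
  · have h1 : ∀ j : Nat, (o.1 * t) ^ j * (t.1 ^ j)⁻¹ ∈ O := fun j => by
      induction j with
      | zero => simp
      | succ j ih =>
        have : (o.1 * t) ^ (j + 1) * (t.1 ^ (j + 1))⁻¹ = o.1 * (t * ((o.1 * t) ^ j * (t.1 ^ j)⁻¹) * t.1⁻¹) := by
          rw [pow_succ', pow_succ']; group
        rw [this]; exact mul_mem o.2 ((mem_normalizer_iff.1 (hn t.2) _).1 ih)
    have h2 := h1 (orderOf (o.1 * t))
    rw [pow_orderOf_eq_one, one_mul] at h2
    have h3 := orderOf_dvd_of_pow_eq_one (inv_eq_one.1 (hd' _ h2 (inv_mem (pow_mem t.2 _))))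
    obtain ⟨j, hj⟩ := hT.exists_orderOf_eq_pow t
    rw [Subgroup.orderOf_coe, hj] at h3
    rcases j with _ | j
    · exact absurd (orderOf_eq_one_iff.1 hj) ht
    · exact (dvd_pow_self 2 (by omega)).trans h3

theorem norm2 [Finite G] {χ : G → ℂ} (hχ : IsIrrCharacter G χ) {x : G} (hx : x ≠ 1) {c : Nat} (hc : Nat.card (centralizer {x}) ≤ c)
    {d a : ℤ} (h1 : χ 1 = d) (h2 : χ x = a) : c * d ^ 2 + Nat.card G * a ^ 2 ≤ c * Nat.card G := by
  classical
  have := Fintype.ofFinite G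
  have h := classInner_self_re χ
  rw [hχ.classInner_self, Complex.one_re, eq_inv_mul_iff_mul_eq₀ (by exact_mod_cast Nat.card_pos.ne'), mul_one] at h
  let K := Finset.univ.filter fun y => IsConj x y
  have k1 : (1 : G) ∉ K := by simpa [K] using hx
  have k2 := Finset.sum_le_sum_of_subset_of_nonneg (f := fun g => ‖χ g‖ ^ 2) (Finset.subset_univ (insert 1 K)) fun _ _ _ => by positivity
  rw [Finset.sum_insert k1, ← h, Finset.sum_congr rfl (g := fun _ => (a : ℝ) ^ 2) fun y hy => by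
    obtain ⟨z, rfl⟩ := isConj_iff.1 (Finset.mem_filter.1 hy).2
    rw [hχ.isClassFunction, h2, Complex.norm_intCast, sq_abs], h1, Complex.norm_intCast, sq_abs, Finset.sum_const, nsmul_eq_mul] at k2
  have k3 : Nat.card G ≤ c * K.card := by
    have := Finset.card_le_mul_card_image_of_maps_to (f := fun z : G => z * x * z⁻¹) (s := Finset.univ) (t := K)
      (fun z _ => Finset.mem_filter.2 ⟨Finset.mem_univ _, isConj_iff.2 ⟨z, rfl⟩⟩) c fun y hy => by
        obtain ⟨z, rfl⟩ := isConj_iff.1 (Finset.mem_filter.1 hy).2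
        refine le_trans ?_ hc
        rw [← Nat.card_eq_finsetCard]
        refine Nat.card_le_card_of_injective (fun w => ⟨z⁻¹ * w.1, mem_centralizer_singleton_iff.2 ?_⟩) fun v w e =>
          Subtype.ext (mul_left_cancel (congrArg Subtype.val e))
        have := (Finset.mem_filter.1 w.2).2
        rw [mul_inv_eq_iff_eq_mul] at this
        rw [mul_assoc, this]; group
    rwa [Finset.card_univ, ← Nat.card_eq_fintype_card] at this
  have k4 : (Nat.card G : ℝ) ≤ c * K.card := by exact_mod_cast k3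
  have : (c : ℝ) * d ^ 2 + Nat.card G * a ^ 2 ≤ c * Nat.card G := by
    nlinarith [mul_le_mul_of_nonneg_right k4 (sq_nonneg (a : ℝ)), mul_le_mul_of_nonneg_left k2 (Nat.cast_nonneg c)]
  exact_mod_cast this

theorem deg_of [Finite G] (χ : IrrCharacter G) (h : ¬ 2 ∣ Nat.card G / charDegree χ.1) {e u : Nat} (hN : Nat.card G = 2 ^ e * u) :
    (∀ x, 2 ∣ orderOf x → χ.1 x = 0) ∧ ∃ m : Nat, m ∣ u ∧ χ.1 1 = (2 ^ e * m : Nat) := by
  have h1 := (coe_charDegree χ.2.isCharacter).symm
  refine ⟨fun x hx => χ.2.eq_zero_of_defect_zero Nat.prime_two h1 h hx, ?_⟩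
  obtain ⟨k, hk⟩ := charDegree_dvd χ.2
  rw [hk, Nat.mul_div_cancel_left _ (Nat.pos_of_ne_zero (charDegree_ne_zero χ.2))] at h
  obtain ⟨m, hm⟩ : 2 ^ e ∣ charDegree χ.1 := ((Nat.prime_two.coprime_iff_not_dvd.2 h).pow_left e).dvd_of_dvd_mul_right
    (hk ▸ hN ▸ dvd_mul_right _ _)
  refine ⟨m, ⟨k, Nat.eq_of_mul_eq_mul_left (Nat.two_pow_pos e) ?_⟩, hm ▸ h1⟩
  rw [← hN, hk, hm, mul_assoc]

end

variable {G : Type u} [Group G] {Ω : Type*} [MulAction G Ω] {pt : Nat → Ω} {n : Nat} {g : Nat → G} {l : List Net} {k N : Nat}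
  {bs : List Nat}

theorem Md.nrms (M : Md pt n g l k N bs) {S U : List (List Nat)} (V : List (List (List Nat)))
    (h : nall (fun j => nrmW l bs S (wordAt U j) (matAt V j)) U.length = true) : genW g U ≤ normalizer (genW g S : Set G) :=
  genW_le.2 fun w hw => by
    obtain ⟨j, hj, rfl⟩ := exists_wordAt hw
    exact M.nrm (nall_iff.1 h j hj)

theorem Pc.gen [Finite G] {S : List (List Nat)} {p : Nat} (P : Pc (fun j => wprod g (wordAt S j)) p S.length) (hp : 0 < p) :
    Nat.card (genW g S) = p ^ S.length := Tl.genW g S ▸ P.card hp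

theorem Md.pc0 (M : Md pt n g l k N bs) : Pc (fun j => wprod g (wordAt [] j)) 2 ([] : List (List Nat)).length :=
  have := M.fin
  M.pc [] [] rfl Nat.card_pos

theorem Md.con2 (M : Md pt n g l k N bs) {z : List Nat} {S U K : List (List Nat)} (P : Pc (fun j => wprod g (wordAt S j)) 2 S.length)
    (hC : centralizer {x | ∃ w ∈ [z], wprod g w = x} = genW g U)
    (hD : centralizer {x | ∃ w ∈ S, wprod g w = x} = genW g (K.map (substW S))) (V : List (List (List Nat)))
    (h : band (nall (fun j => nrmW l bs S (wordAt U j) (matAt V j)) U.length)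
      (lall (fun w => fixesP l (rinv (app w z) (app z w)) bs) S) = true) : Con2 (wprod g z) := by
  have := M.fin
  refine ⟨genW g S, IsPGroup.of_card (P.gen two_pos), genW_le.2 fun w hw => mem_centralizer_singleton_iff.2 ?_,
    cen_one (g := g) ▸ hC ▸ M.nrms V (band_iff.1 h).1, ?_⟩
  · have := M.eq (lall_iff.1 (band_iff.1 h).2 w hw)
    rwa [wprod_app, wprod_app] at this
  · refine (centralizer_le (show {x | ∃ w ∈ S, wprod g w = x} ⊆ (genW g S : Set G) from ?_)).trans (hD ▸ genW_le.2 fun w hw => ?_)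
    · rintro _ ⟨w, hw, rfl⟩; exact mem_genW g hw
    · obtain ⟨v, -, rfl⟩ := List.mem_map.1 hw
      rw [wprod_substW]
      exact wprod_mem fun x _ => wordAt_in (fun _ hw => mem_genW g hw) _

/-- The words are conjugate to the indicated representatives. -/
noncomputable def cjL (l : List Net) (bs : List Nat) (R L : List (List Nat)) : List (List Nat) → List Nat → Bool :=
  List.rec (motive := fun _ => List (List Nat) → List Nat → Bool) (fun _ is => is.isEmpty)
    (fun w _ ih cs is => band (band (Bool.not is.isEmpty)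
      (fixesP l (rinv (app (wordAt cs 0) w) (app (wordAt R (nth is 0)) (wordAt cs 0))) bs)) (ih cs.tail is.tail)) L

theorem Md.cjL (M : Md pt n g l k N bs) {R L cs : List (List Nat)} {is : List Nat} (h : cjL l bs R L cs is = true) {χ : G → ℂ}
    (hχ : IsClassFunction G χ) : (L.map (wprod g)).map χ = is.map fun i => χ (wprod g (wordAt R i)) := by
  induction L generalizing cs is with
  | nil => rw [List.isEmpty_iff.1 h]; rfl
  | cons w L ih =>
    obtain ⟨h1, h2⟩ := band_iff.1 (show band _ (CfsgH7.cjL l bs R L cs.tail is.tail) = true from h)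
    obtain ⟨h0, h1⟩ := band_iff.1 h1
    rcases is with _ | ⟨i, is⟩
    · simp at h0
    · obtain ⟨c, hc⟩ := isConj_iff.1 (M.conj _ h1)
      rw [List.map_cons, List.map_cons, List.map_cons, ih h2, ← hχ _ c, hc]; rfl

theorem nfl_length (p j i : Nat) : (nfl p j i).length = p ^ j := by
  induction j generalizing i with
  | zero => rfl
  | succ j ih => simp [nfl, List.length_flatMap, ih, pow_succ']

theorem Md.dz (M : Md pt n g l k N bs) {S U : List (List Nat)} (P : Pc (fun j => wprod g (wordAt S j)) 3 S.length)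
    (Q : Pc (fun j => wprod g (wordAt U j)) 2 U.length) (V : List (List (List Nat))) (R cs : List (List Nat)) (is : List Nat)
    (h : band (nall (fun j => nrmW l bs S (wordAt U j) (matAt V j)) U.length)
      (CfsgH7.cjL l bs R ((nfl 3 S.length 0).map (substW S)) cs is) = true) {χ : G → ℂ} (hχ : IsCharacter G χ)
    (h0 : ∀ x, 2 ∣ orderOf x → χ x = 0) :
    ∃ j : Nat, (is.map fun i => χ (wprod g (wordAt R i))).sum = (3 ^ S.length * 2 ^ U.length * j : Nat) := by
  have := M.fin
  have := Fintype.ofFinite (genW g S)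
  obtain ⟨j, hj⟩ := sum_semi hχ h0 (IsPGroup.of_card (Q.gen two_pos)) (by rw [P.gen (by omega)]; exact Nat.Coprime.pow_left _ (by norm_num))
    (M.nrms V (band_iff.1 h).1)
  refine ⟨j, ?_⟩
  rw [← M.cjL (band_iff.1 h).2 hχ.isClassFunction, ← sum_list χ _ (O := genW g S) (fun x hx => ?_) (fun x hx => ?_)
    (by rw [List.length_map, List.length_map, nfl_length, P.gen (by omega)]), hj, P.gen (by omega), Q.gen two_pos]
  · push_cast; rfl
  · obtain ⟨w, h1, h2⟩ := P.nf (by omega) S.length (i := 0) (by omega) (Tl.genW g S ▸ hx)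
    exact List.mem_map.2 ⟨_, List.mem_map_of_mem h1, (wprod_substW _ _ _).trans h2⟩
  · obtain ⟨_, h1, rfl⟩ := List.mem_map.1 hx
    obtain ⟨w, -, rfl⟩ := List.mem_map.1 h1
    rw [wprod_substW]
    exact wprod_mem fun x _ => wordAt_in (fun _ hw => mem_genW g hw) _

theorem Md.cenLe (M : Md pt n g l k N bs) {V R : List (List Nat)} {N' p : Nat} {z : List Nat} (hP : Pr.{u} V.length R N')
    (hC : centralizer {x | ∃ w ∈ [z], wprod g w = x} = genW g V) (es : List Nat)
    (h : CfsgH7.relZ l bs z (R.map (substW V)) es = true) (ho : orderOf (wprod g z) = p) :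
    Nat.card (centralizer {wprod g z}) ≤ p * N' := by
  have := M.fin
  rw [cen_one] at hC
  have hz : wprod g z ∈ genW g V := hC ▸ mem_centralizer_singleton_iff.2 rfl
  have hc : (⟨_, hz⟩ : genW g V) ∈ center (genW g V) := mem_center_iff.2 fun x =>
    Subtype.ext (mem_centralizer_singleton_iff.1 (hC.ge x.2))
  have := normal_zpowers hc
  have h1 := hP (genW g V ⧸ zpowers (⟨_, hz⟩ : genW g V)) (fun j => QuotientGroup.mk' _ (subGen g V j)) fun r hr => by
    rw [← map_wprod]
    obtain ⟨i, hi⟩ := M.relZ h _ (List.mem_map_of_mem hr)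
    exact (QuotientGroup.eq_one_iff _).2 ⟨i, Subtype.ext (by simpa [coe_wprod_subGen] using hi)⟩
  rw [← genW_map, subGen_gen, map_top_of_surjective _ (QuotientGroup.mk'_surjective _)] at h1
  rw [hC, card_eq_card_quotient_mul_card_subgroup (zpowers (⟨_, hz⟩ : genW g V)), Nat.card_zpowers, ← Subgroup.orderOf_coe, ho, mul_comm]
  exact Nat.mul_le_mul_left _ h1.top_le

end CfsgH7
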